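import Mathlib
import Cfsg.Agent.ND.Defs
import Cfsg.Agent.ND.Avg
import Cfsg.Agent.GT.CoprimeActThms

set_option autoImplicit false
set_option linter.unusedSectionVars false

namespace Cfsg.Agent.ND

open Cfsg Cfsg.Agent.Ch Cfsg.Agent.Deg.Nd Subgroup MulAction
open scoped commutatorElement

variable {V : Type*} [CommGroup V] [Finite V] {Y : Type*} [Group Y] [Finite Y] [MulDistribMulAction Y V]
  {J A Z : Subgroup Y} {y₀ : Y} {f : ℕ}

theorem Ab.uniq (h : Ab V J A Z y₀ f) {y : Y} (hy : y ∈ A) (hZ : y ∉ Z) {x : V} (hx : x ≠ 1)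
    (e : y • x = x) {v : Y} (hv : v ∈ J) (e' : y • v • x = v • x) : v = 1 := by
  have hw : v⁻¹ * (y * v * y⁻¹) ∈ J := J.mul_mem (J.inv_mem hv) (h.Jn.conj_mem v hv y)
  have e1 : y⁻¹ • x = x := by
    conv_lhs => rw [← e]
    rw [inv_smul_smul]
  have e2 : (v⁻¹ * (y * v * y⁻¹) * 1) • x = x := by
    rw [mul_one, mul_smul, mul_smul, mul_smul, e1, e', inv_smul_smul]
  have h1 := (h.semi _ hw 1 Z.one_mem x hx e2).1
  have h2 : y * v * y⁻¹ = v := by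
    have := congrArg (fun t => v * t) h1
    simpa [← mul_assoc] using this
  refine h.fpf y hy hZ v hv ?_
  calc y * v = (y * v * y⁻¹) * y := by group
    _ = v * y := by rw [h2]

theorem Irr_ne_one {g : Y} {x : V} (hx : x ≠ 1) : g • x ≠ 1 := fun hh => hx (by
  have := congrArg (fun t => g⁻¹ • t) hh
  simpa using this)

theorem Ab.schur (h : Ab V J A Z y₀ f) {y : Y} (hy : y ∈ A) (hZ : y ∉ Z)
    (hc : ∀ x : V, x ≠ 1 → ∃ v ∈ J, y • v • x = v • x) (e : V →* V)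
    (he : ∀ v ∈ J, ∀ x, e (v • x) = v • e x) {x₀ : V} (h0 : x₀ ≠ 1) (h1 : e x₀ = 1) (x : V) :
    e x = 1 := by
  obtain ⟨r, hr, hrV⟩ := h.elem
  haveI : Fact r.Prime := ⟨hr⟩
  let φ : J →* MulAut V := (MulDistribMulAction.toMulAut Y V).comp J.subtype
  have hφ : ∀ (a : J) (u : V), φ a u = (a : Y) • u := fun a u => rfl
  have hcop : (Nat.card J).Coprime r := by
    refine ((Nat.Prime.coprime_iff_not_dvd hr).2 ?_).symm
    rintro ⟨k, hk⟩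
    exact h0 (h.cop (by rw [hk, pow_mul, hrV, one_pow]))
  have hS : ∀ v ∈ J, ∀ u ∈ e.ker, v • u ∈ e.ker := by
    intro v hv u hu
    rw [MonoidHom.mem_ker] at hu ⊢
    rw [he v hv, hu, smul_one]
  have hel : IsElementaryAbelian r (⊤ : Subgroup V) :=
    ⟨inferInstance, fun a _ => hrV a⟩
  obtain ⟨T, -, hT, hinf, hsup⟩ :=
    Cfsg.Agent.GT.CopAct.act_exists_invariant_complement_of_isElementaryAbelian (φ := φ)
      (V := ⊤) (U := e.ker) hel (fun _ _ _ => Subgroup.mem_top _) hcop le_top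
      (fun a u hu => hS a a.2 u hu)
  have hT' : ∀ v ∈ J, ∀ u ∈ T, v • u ∈ T := fun v hv u hu => hT ⟨v, hv⟩ u hu
  have hdis : ∀ u, u ∈ e.ker → u ∈ T → u = 1 := fun u a b => by
    have : u ∈ e.ker ⊓ T := ⟨a, b⟩
    rwa [hinf, Subgroup.mem_bot] at this
  by_cases hTb : T = ⊥
  · rw [hTb, sup_bot_eq] at hsup
    have : x ∈ e.ker := hsup ▸ Subgroup.mem_top x
    exact this
  exfalso
  obtain ⟨⟨t, htT⟩, ht⟩ := (Subgroup.ne_bot_iff_exists_ne_one).1 hTb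
  have ht1 : t ≠ 1 := fun hh => ht (Subtype.ext hh)
  obtain ⟨⟨v, hv⟩, hv1⟩ := (Subgroup.ne_bot_iff_exists_ne_one).1 h.Jne
  have hv1' : v ≠ 1 := fun hh => hv1 (Subtype.ext hh)
  obtain ⟨v₁, hv₁, e₁⟩ := hc x₀ h0
  obtain ⟨v₂, hv₂, e₂⟩ := hc t ht1
  set x₁ := v₁ • x₀ with hx₁
  set x₂ := v₂ • t with hx₂
  have m₁ : x₁ ∈ e.ker := hS v₁ hv₁ x₀ h1
  have m₂ : x₂ ∈ T := hT' v₂ hv₂ t htT
  have n₁ : x₁ ≠ 1 := Irr_ne_one h0
  have n₂ : x₂ ≠ 1 := Irr_ne_one ht1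
  have hw : x₁ * v • x₂ ≠ 1 := by
    intro hh
    refine n₁ (hdis _ m₁ ?_)
    rw [eq_inv_of_mul_eq_one_left hh]
    exact T.inv_mem (hT' v hv _ m₂)
  obtain ⟨u, hu, e₃⟩ := hc _ hw
  have c : ∀ (g : Y) (s : V), y • s = s → y • g • s = (y * g * y⁻¹) • s := by
    intro g s hs
    have : y⁻¹ • s = s := by
      conv_lhs => rw [← hs]
      rw [inv_smul_smul]
    rw [mul_smul, mul_smul, this]
  have huv : u * v ∈ J := J.mul_mem hu hv
  have a₁ : y • u • x₁ ∈ e.ker := by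
    rw [c u x₁ e₁]; exact hS _ (h.Jn.conj_mem u hu y) _ m₁
  have a₂ : y • (u * v) • x₂ ∈ T := by
    rw [c (u * v) x₂ e₂]; exact hT' _ (h.Jn.conj_mem _ huv y) _ m₂
  have b₁ : u • x₁ ∈ e.ker := hS u hu _ m₁
  have b₂ : (u * v) • x₂ ∈ T := hT' _ huv _ m₂
  have e₄ : (y • u • x₁) * (y • (u * v) • x₂) = (u • x₁) * ((u * v) • x₂) := by
    rw [mul_smul u v x₂, ← smul_mul', ← smul_mul', e₃]
  have e₅ : (u • x₁)⁻¹ * (y • u • x₁) = ((u * v) • x₂) * (y • (u * v) • x₂)⁻¹ := by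
    rw [inv_mul_eq_iff_eq_mul, ← mul_assoc, eq_mul_inv_iff_mul_eq, e₄]
  have e₆ : (u • x₁)⁻¹ * (y • u • x₁) = 1 :=
    hdis _ (e.ker.mul_mem (e.ker.inv_mem b₁) a₁) (e₅ ▸ T.mul_mem b₂ (T.inv_mem a₂))
  have e₇ : y • u • x₁ = u • x₁ := (inv_mul_eq_one.1 e₆).symm
  have e₈ : y • (u * v) • x₂ = (u * v) • x₂ := by
    rw [e₇] at e₄
    exact mul_left_cancel e₄
  have hu1 : u = 1 := h.uniq hy hZ n₁ e₁ hu e₇
  have huv1 : u * v = 1 := h.uniq hy hZ n₂ e₂ huv e₈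
  rw [hu1, one_mul] at huv1
  exact hv1' huv1

end Cfsg.Agent.ND
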